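import Mathlib.GroupTheory.Coxeter.Basic
import Mathlib.GroupTheory.OrderOfElement
import Mathlib.Tactic

/-!
A group generated by involutions with the exchange property is a Coxeter group.
-/

set_option autoImplicit false

namespace Cfsg.Agent.Cox

/-- The alternating list `x, y, x, ...` of length `n`. -/
def alt {S : Type*} (x y : S) : ℕ → List S
  | 0 => []
  | n + 1 => x :: alt y x n

theorem length_alt {S : Type*} : ∀ (n : ℕ) (x y : S), (alt x y n).length = n
  | 0, _, _ => rfl
  | n + 1, x, y => by simp [alt, length_alt n y x]

theorem alt_split {S : Type*} : ∀ (n : ℕ) (x y c : S) (l₁ l₂ : List S),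
    alt x y n = l₁ ++ c :: l₂ →
    (l₂ = [] ∧ l₁ = alt x y (n - 1)) ∨ (l₁ = [] ∧ ∃ l, l₂ = y :: l) ∨
      ∃ d l₀ l, l₁ = l₀ ++ [d] ∧ l₂ = d :: l := by
  intro n
  induction n with
  | zero => intro x y c l₁ l₂ h; simp [alt] at h
  | succ n ih =>
    intro x y c l₁ l₂ h
    cases l₁ with
    | nil =>
      simp only [alt, List.nil_append, List.cons.injEq] at h
      cases n with
      | zero => left; exact ⟨by simpa [alt] using h.2.symm, by simp [alt]⟩
      | succ n => right; left; exact ⟨rfl, alt x y n, h.2.symm⟩
    | cons a l₁ =>
      simp only [alt, List.cons_append, List.cons.injEq] at h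
      obtain ⟨rfl, h⟩ := h
      rcases ih y x c l₁ l₂ h with ⟨h1, h2⟩ | ⟨h1, l, h2⟩ | ⟨d, l₀, l, h1, h2⟩
      · left
        refine ⟨h1, ?_⟩
        cases n with
        | zero => simp [alt] at h
        | succ n => simp [alt, h2]
      · exact Or.inr (Or.inr ⟨x, [], l, by simp [h1], h2⟩)
      · exact Or.inr (Or.inr ⟨d, x :: l₀, l, by simp [h1], h2⟩)

theorem alt_prod_mul_inv {W : Type*} [Group W] : ∀ (n : ℕ) (u v : W), u * u = 1 → v * v = 1 →
    (alt u v n).prod * ((alt v u n).prod)⁻¹ = (u * v) ^ n := by
  intro n
  induction n with
  | zero => intro u v _ _; simp [alt]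
  | succ n ih =>
    intro u v hu hv
    have hv' : v⁻¹ = v := inv_eq_of_mul_eq_one_right hv
    simp only [alt, List.prod_cons, mul_inv_rev, hv']
    calc u * (alt v u n).prod * (((alt u v n).prod)⁻¹ * v)
        = u * ((alt v u n).prod * ((alt u v n).prod)⁻¹) * v := by group
      _ = u * (v * u) ^ n * v := by rw [ih v u hv hu]
      _ = (u * v) ^ (n + 1) := by
        have h : ∀ k : ℕ, u * (v * u) ^ k = (u * v) ^ k * u := by
          intro k
          induction k with
          | zero => simp
          | succ k ihk => rw [pow_succ, pow_succ, ← mul_assoc, ihk]; group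
        rw [h, pow_succ]; group

theorem map_alt {S T : Type*} (f : S → T) : ∀ (n : ℕ) (x y : S),
    (alt x y n).map f = alt (f x) (f y) n
  | 0, _, _ => rfl
  | n + 1, x, y => by simp [alt, map_alt f n y x]

/-- Involutive generators with a length function satisfying the exchange condition. -/
structure ExchangeData (W : Type*) [Group W] (S : Type*) where
  gen : S → W
  len : W → ℕ
  invol : ∀ s, gen s * gen s = 1
  inj : Function.Injective gen
  len_le : ∀ l : List S, len (l.map gen).prod ≤ l.length
  exists_reduced : ∀ w : W, ∃ l : List S, (l.map gen).prod = w ∧ l.length = len w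
  len_ne : ∀ s w, len (gen s * w) ≠ len w
  exchange : ∀ (s : S) (l : List S), len (gen s * (l.map gen).prod) < len (l.map gen).prod →
    ∃ l₁ c l₂, l = l₁ ++ c :: l₂ ∧ gen s * (l.map gen).prod = ((l₁ ++ l₂).map gen).prod

namespace ExchangeData

variable {W : Type*} [Group W] {S : Type*} (D : ExchangeData W S)

theorem gen_gen_mul (s : S) (w : W) : D.gen s * (D.gen s * w) = w := by
  rw [← mul_assoc, D.invol, one_mul]

theorem len_mul_le (s : S) (w : W) : D.len (D.gen s * w) ≤ D.len w + 1 := by
  obtain ⟨l, hl, hl'⟩ := D.exists_reduced w
  have := D.len_le (s :: l)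
  simpa [hl, hl'] using this

theorem le_len_mul (s : S) (w : W) : D.len w ≤ D.len (D.gen s * w) + 1 := by
  have := D.len_mul_le s (D.gen s * w)
  rwa [D.gen_gen_mul] at this

/-- The Coxeter matrix of the orders of products of two generators. -/
noncomputable def matrix : CoxeterMatrix S where
  M := Matrix.of fun s t => orderOf (D.gen s * D.gen t)
  isSymm := by
    refine Matrix.IsSymm.ext fun s t => ?_
    simp only [Matrix.of_apply]
    have h1 : ∀ r, (D.gen r)⁻¹ = D.gen r := fun r => inv_eq_of_mul_eq_one_right (D.invol r)
    rw [← orderOf_inv (D.gen s * D.gen t), mul_inv_rev, h1, h1]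
  diagonal := fun s => by simp [D.invol s]
  off_diagonal := fun s t hst h => by
    simp only [Matrix.of_apply, orderOf_eq_one_iff] at h
    exact hst (D.inj (mul_right_cancel (h.trans (D.invol t).symm)))

theorem liftable : D.matrix.IsLiftable D.gen := fun s t => by
  simp [matrix, pow_orderOf_eq_one]

/-- The canonical map from the Coxeter group. -/
noncomputable def hom : D.matrix.Group →* W :=
  D.matrix.toCoxeterSystem.lift ⟨D.gen, D.liftable⟩

theorem hom_simple (s : S) : D.hom (D.matrix.toCoxeterSystem.simple s) = D.gen s :=
  D.matrix.toCoxeterSystem.lift_apply_simple D.liftable s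

theorem hom_wordProd (l : List S) :
    D.hom (D.matrix.toCoxeterSystem.wordProd l) = (l.map D.gen).prod := by
  rw [CoxeterSystem.wordProd, map_list_prod, List.map_map]
  congr 1
  exact List.map_congr_left fun s _ => D.hom_simple s

theorem braid_eq {x y : S} {j : ℕ}
    (h : ((alt x y j).map D.gen).prod = ((alt y x j).map D.gen).prod) :
    D.matrix.toCoxeterSystem.wordProd (alt x y j) =
      D.matrix.toCoxeterSystem.wordProd (alt y x j) := by
  rw [map_alt, map_alt, ← mul_inv_eq_one, alt_prod_mul_inv j _ _ (D.invol x) (D.invol y)] at h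
  have hd : D.matrix x y ∣ j := orderOf_dvd_of_pow_eq_one h
  unfold CoxeterSystem.wordProd
  rw [map_alt, map_alt, ← mul_inv_eq_one,
    alt_prod_mul_inv j _ _ (CoxeterSystem.simple_mul_simple_self _ x)
      (CoxeterSystem.simple_mul_simple_self _ y)]
  obtain ⟨q, rfl⟩ := hd
  rw [pow_mul, CoxeterSystem.simple_mul_simple_pow, one_pow]

/-- Matsumoto: reduced words of the same element agree in the Coxeter group. -/
theorem matsumoto : ∀ (k : ℕ) (a b : List S), a.length = k → b.length = k →
    (a.map D.gen).prod = (b.map D.gen).prod → D.len (a.map D.gen).prod = k →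
    D.matrix.toCoxeterSystem.wordProd a = D.matrix.toCoxeterSystem.wordProd b := by
  intro k
  induction k with
  | zero =>
    intro a b ha hb _ _
    rw [List.length_eq_zero_iff.1 ha, List.length_eq_zero_iff.1 hb]
  | succ k ih =>
    intro a b ha hb hab hk
    set w := (a.map D.gen).prod with hw
    -- tails
    have tail : ∀ (u : S) (p q : List S), (u :: p).length = k + 1 → (u :: q).length = k + 1 →
        ((u :: p).map D.gen).prod = w → ((u :: q).map D.gen).prod = w →
        D.matrix.toCoxeterSystem.wordProd (u :: p) =
          D.matrix.toCoxeterSystem.wordProd (u :: q) := by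
      intro u p q hp hq hp' hq'
      rw [CoxeterSystem.wordProd_cons, CoxeterSystem.wordProd_cons]
      congr 1
      simp only [List.length_cons, Nat.add_right_cancel_iff] at hp hq
      simp only [List.map_cons, List.prod_cons] at hp' hq'
      refine ih p q hp hq (mul_left_cancel (hp'.trans hq'.symm)) ?_
      have h1 := D.len_le p
      have h2 := D.le_len_mul u (D.gen u * (p.map D.gen).prod)
      have h3 := D.len_mul_le u (p.map D.gen).prod
      rw [hp', hk] at h3
      omega
    cases a with
    | nil => simp at ha
    | cons s a =>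
    cases b with
    | nil => simp at hb
    | cons t b =>
    by_cases hst : s = t
    · subst hst; exact tail s a b ha hb rfl hab.symm
    classical
    let Good : ℕ → Prop := fun j => ∃ x y r, ((x = s ∧ y = t) ∨ (x = t ∧ y = s)) ∧
      (alt x y j ++ r).length = k + 1 ∧ ((alt x y j ++ r).map D.gen).prod = w
    have h1 : Good 1 := ⟨s, t, a, Or.inl ⟨rfl, rfl⟩, by simpa [alt] using ha, by simp [alt, hw]⟩
    set j := Nat.findGreatest Good (k + 1) with hj
    have hj1 : 1 ≤ j := Nat.le_findGreatest (by omega) h1
    have hjle : j ≤ k + 1 := Nat.findGreatest_le _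
    obtain ⟨x, y, r, hxy, hlen, hprod⟩ : Good j := Nat.findGreatest_spec (by omega) h1
    -- both are descents
    have hdesc : ∀ (u : S) (p : List S), (u :: p).length = k + 1 →
        ((u :: p).map D.gen).prod = w → D.len (D.gen u * w) < D.len w := by
      intro u p hp hp'
      rw [hk, ← hp']
      simp only [List.map_cons, List.prod_cons, D.gen_gen_mul]
      have := D.len_le p
      simp at hp
      omega
    have hy : D.len (D.gen y * w) < D.len w := by
      rcases hxy with ⟨-, rfl⟩ | ⟨-, rfl⟩
      · exact hdesc _ b hb hab.symm
      · exact hdesc _ a ha rfl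
    have hyk : k ≤ D.len (D.gen y * w) := by
      have := D.le_len_mul y w; omega
    obtain ⟨l₁, c, l₂, hl, hyw⟩ := D.exchange y (alt x y j ++ r) (by rwa [hprod])
    rw [hprod] at hyw
    rw [List.append_eq_append_iff] at hl
    simp only [List.length_append, length_alt] at hlen
    -- the case of a deletion in the tail
    have htail : ∀ e, l₁ = alt x y j ++ e → r = e ++ c :: l₂ → False := by
      intro e he hr
      have hlen' : j + (e.length + (l₂.length + 1)) = k + 1 := by
        rw [hr] at hlen; simpa using hlen
      refine Nat.findGreatest_is_greatest (show j < j + 1 by omega) (by omega)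
        ⟨y, x, e ++ l₂, hxy.symm.imp (fun h => ⟨h.2, h.1⟩) (fun h => ⟨h.2, h.1⟩), ?_, ?_⟩
      · simp [alt, length_alt]; omega
      · have : w = D.gen y * (D.gen y * w) := (D.gen_gen_mul _ _).symm
        rw [this, hyw, he]
        simp [alt, List.prod_append]
    rcases hl with ⟨e, he, hr⟩ | ⟨e, he, hr⟩
    · exact absurd (htail e he hr) id
    cases e with
    | nil =>
      simp only [List.append_nil] at he
      exact absurd (htail [] (by simp [he]) (by simpa using hr.symm)) id
    | cons c' e =>
      simp only [List.cons_append, List.cons.injEq] at hr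
      obtain ⟨rfl, hr⟩ := hr
      rcases alt_split j x y c l₁ e he with ⟨he1, he2⟩ | ⟨he1, l, he2⟩ | ⟨d, l₀, l, he1, he2⟩
      · -- braid relation
        subst he1
        have hj' : alt y x j = y :: alt x y (j - 1) := by
          conv_lhs => rw [show j = j - 1 + 1 by omega]
          rfl
        have hprod' : ((alt y x j ++ r).map D.gen).prod = w := by
          rw [hj']
          simp only [List.cons_append, List.map_cons, List.prod_cons]
          rw [← D.gen_gen_mul y w, hyw, hr, he2]
          simp
        have hWeq : ((alt x y j).map D.gen).prod = ((alt y x j).map D.gen).prod := by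
          have := hprod.trans hprod'.symm
          simpa [List.prod_append] using this
        have hbr := D.braid_eq hWeq
        have hfirst : ∀ (u v : S), ∀ m, alt u v j = m → ∀ (p : List S),
            ((alt u v j ++ r).map D.gen).prod = w → (u :: p).length = k + 1 →
            ((u :: p).map D.gen).prod = w →
            D.matrix.toCoxeterSystem.wordProd (u :: p) =
              D.matrix.toCoxeterSystem.wordProd (alt u v j ++ r) := by
          intro u v m _ p hu hp hp'
          have : alt u v j = u :: alt v u (j - 1) := by
            conv_lhs => rw [show j = j - 1 + 1 by omega]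
            rfl
          rw [this, List.cons_append] at hu ⊢
          exact tail u p _ hp (by simp [length_alt]; omega) hp' hu
        rcases hxy with ⟨rfl, rfl⟩ | ⟨rfl, rfl⟩
        · rw [hfirst _ _ _ rfl a hprod ha rfl, hfirst _ _ _ rfl b hprod' hb hab.symm,
            CoxeterSystem.wordProd_append, CoxeterSystem.wordProd_append, hbr]
        · rw [hfirst _ _ _ rfl a hprod' ha rfl, hfirst _ _ _ rfl b hprod hb hab.symm,
            CoxeterSystem.wordProd_append, CoxeterSystem.wordProd_append, hbr]
      · exfalso
        subst he1 he2
        rw [hr] at hyw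
        simp only [List.nil_append, List.cons_append, List.map_cons, List.prod_cons] at hyw
        have hlw := mul_left_cancel hyw
        have := D.len_le (l ++ r)
        rw [← hlw, hk] at this
        have hl' := congrArg List.length he
        simp [length_alt] at hl' this
        omega
      · exfalso
        subst he1 he2
        rw [hr] at hyw
        have e2 : D.gen y * w = ((l₀ ++ (l ++ r)).map D.gen).prod := by
          rw [hyw]; simp [List.prod_append, D.gen_gen_mul]
        have := D.len_le (l₀ ++ (l ++ r))
        rw [← e2] at this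
        have hl' := congrArg List.length he
        simp [length_alt] at hl' this
        omega

theorem wordProd_reduced (l : List S) : ∃ r : List S, (r.map D.gen).prod = (l.map D.gen).prod ∧
    r.length = D.len (l.map D.gen).prod ∧
    D.matrix.toCoxeterSystem.wordProd l = D.matrix.toCoxeterSystem.wordProd r := by
  induction l with
  | nil => exact ⟨[], rfl, (Nat.le_zero.1 (D.len_le [])).symm, rfl⟩
  | cons s l ih =>
    obtain ⟨r, hr, hrl, hrc⟩ := ih
    set w := (l.map D.gen).prod
    rw [List.map_cons, List.prod_cons, CoxeterSystem.wordProd_cons, hrc]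
    rcases Nat.lt_or_gt_of_ne (D.len_ne s w) with h | h
    · obtain ⟨r', hr', hr'l⟩ := D.exists_reduced (D.gen s * w)
      refine ⟨r', hr', hr'l, ?_⟩
      have h1 := D.le_len_mul s w
      have hsr' : ((s :: r').map D.gen).prod = w := by
        simp [hr', D.gen_gen_mul]
      have := D.matsumoto r.length r (s :: r') rfl (by simp; omega) (by rw [hsr', hr])
        (by rw [hr]; omega)
      rw [this, CoxeterSystem.wordProd_cons, ← mul_assoc, CoxeterSystem.simple_mul_simple_self,
        one_mul]
    · refine ⟨s :: r, by simp [hr, w], ?_, (CoxeterSystem.wordProd_cons _ _ _).symm⟩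
      have := D.len_mul_le s w
      show _ = D.len (D.gen s * w)
      simp only [List.length_cons, hrl]
      omega

theorem hom_injective : Function.Injective D.hom := by
  refine (injective_iff_map_eq_one _).2 fun g hg => ?_
  obtain ⟨l, rfl⟩ := D.matrix.toCoxeterSystem.wordProd_surjective g
  rw [D.hom_wordProd] at hg
  obtain ⟨r, -, hrl, hrc⟩ := D.wordProd_reduced l
  rw [hg] at hrl
  have h0 : D.len (1 : W) = 0 := Nat.le_zero.1 (by simpa using D.len_le [])
  rw [h0, List.length_eq_zero_iff] at hrl
  rw [hrc, hrl]
  rfl

theorem hom_surjective : Function.Surjective D.hom := fun w => by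
  obtain ⟨l, hl, -⟩ := D.exists_reduced w
  exact ⟨D.matrix.toCoxeterSystem.wordProd l, (D.hom_wordProd l).trans hl⟩

/-- The Coxeter system of an exchange datum. -/
noncomputable def coxeterSystem : CoxeterSystem D.matrix W :=
  ⟨(MulEquiv.ofBijective D.hom ⟨D.hom_injective, D.hom_surjective⟩).symm⟩

theorem coxeterSystem_simple (s : S) : D.coxeterSystem.simple s = D.gen s :=
  D.hom_simple s

end ExchangeData

end Cfsg.Agent.Cox
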